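import Cfsg.Agent.Lib.Helper50.FOT.Defs

/-!
# FOT (S3999): package [GFROB]
-/

set_option autoImplicit false
open scoped Pointwise

namespace Cfsg.Agent.Lib.Helper15.FOT

open Cfsg.Agent.Lib.Helper50.FOT

universe u

theorem pkgGFrob : PkgGFrob.{u} := by
  intro G _ _ n h N hN hNc hGc hcop hn hh hord
  haveI := hN
  have hidx : N.index = h := by
    have h1 := N.card_mul_index
    rw [hNc, hGc] at h1
    exact Nat.eq_of_mul_eq_mul_left (by omega) h1
  have hcop' : (Nat.card N).Coprime N.index := by rw [hNc, hidx]; exact hcop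
  obtain ⟨H, hH⟩ := Subgroup.exists_right_complement'_of_coprime hcop'
  have hHc : Nat.card H = h := by
    have h1 := hH.card_mul_card
    rw [hNc, hGc] at h1
    exact Nat.eq_of_mul_eq_mul_left (by omega) h1
  have hdisj : N ⊓ H = ⊥ := hH.disjoint.eq_bot
  have ha : ∀ x ∈ N, ∀ y ∈ H, x * y = y * x → x = 1 ∨ y = 1 := by
    intro x hx y hy hxy
    have hox : orderOf x ∣ n := hNc ▸ Subgroup.orderOf_dvd_natCard N hx
    have hoy : orderOf y ∣ h := hHc ▸ Subgroup.orderOf_dvd_natCard H hy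
    have hc : (orderOf x).Coprime (orderOf y) :=
      Nat.Coprime.coprime_dvd_left hox (Nat.Coprime.coprime_dvd_right hoy hcop)
    have hmul : orderOf (x * y) = orderOf x * orderOf y :=
      Commute.orderOf_mul_eq_mul_orderOf_of_coprime hxy hc
    have hg1 : Nat.gcd n h = 1 := hcop
    rcases hord (x * y) with h1 | h1
    · right
      rw [hmul] at h1
      have h2 : orderOf y ∣ n := dvd_trans (dvd_mul_left _ _) h1
      have h3 : orderOf y ∣ Nat.gcd n h := Nat.dvd_gcd h2 hoy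
      rw [hg1] at h3
      exact orderOf_eq_one_iff.mp (Nat.dvd_one.mp h3)
    · left
      rw [hmul] at h1
      have h2 : orderOf x ∣ h := dvd_trans (dvd_mul_right _ _) h1
      have h3 : orderOf x ∣ Nat.gcd n h := Nat.dvd_gcd hox h2
      rw [hg1] at h3
      exact orderOf_eq_one_iff.mp (Nat.dvd_one.mp h3)
  refine ⟨H, ⟨?_, ?_, ?_⟩, hHc⟩
  · rintro rfl
    rw [Subgroup.card_bot] at hHc
    omega
  · rintro rfl
    rw [Subgroup.card_top, hGc] at hHc
    nlinarith
  · intro g hg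
    rw [eq_bot_iff]
    intro z hz
    obtain ⟨hz1, hz2⟩ := Subgroup.mem_inf.mp hz
    obtain ⟨⟨⟨x, hx⟩, ⟨k, hk⟩⟩, hxk⟩ := hH.2 g
    have hxk' : x * k = g := hxk
    rw [Subgroup.mem_pointwise_smul_iff_inv_smul_mem] at hz2
    have hw : g⁻¹ * z * g ∈ H := by
      have : (MulAut.conj g)⁻¹ • z = g⁻¹ * z * g := by
        rw [MulAut.smul_def, MulAut.conj_inv_apply]
      rwa [this] at hz2
    have hw' : x⁻¹ * z * x ∈ H := by
      have h1 : k * (g⁻¹ * z * g) * k⁻¹ ∈ H := H.mul_mem (H.mul_mem hk hw) (H.inv_mem hk)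
      have h2 : k * (g⁻¹ * z * g) * k⁻¹ = x⁻¹ * z * x := by
        rw [← hxk']; group
      rwa [h2] at h1
    have hcomm : z⁻¹ * x⁻¹ * z * x ∈ N ⊓ H := by
      refine Subgroup.mem_inf.mpr ⟨?_, ?_⟩
      · have h1 : z⁻¹ * x⁻¹ * z⁻¹⁻¹ ∈ N := hN.conj_mem x⁻¹ (N.inv_mem hx) z⁻¹
        rw [inv_inv] at h1
        exact N.mul_mem h1 hx
      · have h1 : z⁻¹ * (x⁻¹ * z * x) ∈ H := H.mul_mem (H.inv_mem hz1) hw'
        have h2 : z⁻¹ * (x⁻¹ * z * x) = z⁻¹ * x⁻¹ * z * x := by group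
        rwa [h2] at h1
    rw [hdisj, Subgroup.mem_bot] at hcomm
    have hxz : x * z = z * x := by
      have h1 : x * z * (z⁻¹ * x⁻¹ * z * x) = z * x := by group
      rw [hcomm, mul_one] at h1
      exact h1
    rcases ha x hx z hz1 hxz with h1 | h1
    · exfalso
      apply hg
      rw [← hxk', h1, one_mul]
      exact hk
    · rw [Subgroup.mem_bot]; exact h1

end Cfsg.Agent.Lib.Helper15.FOT
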